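import Cfsg.Agent.Lib.Helper44.Frob3.Defs

/-!
# S4427, package [I]: idempotent powers modulo `p^J` in the integral group algebra
-/

set_option autoImplicit false

namespace Cfsg.Agent.Lib.Helper77.Frob3

universe u

/-- In a finite monoid some positive power of any element is idempotent. -/
theorem exists_pow_idem {M : Type*} [Monoid M] [Finite M] (x : M) :
    ∃ k : ℕ, 0 < k ∧ x ^ k * x ^ k = x ^ k := by
  have hni : ¬ Function.Injective (fun n : ℕ => x ^ n) := not_injective_infinite_finite _
  have : ∃ i d : ℕ, 0 < d ∧ x ^ (i + d) = x ^ i := by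
    rw [Function.Injective] at hni
    push Not at hni
    obtain ⟨a, b, hab, hne⟩ := hni
    rcases lt_or_gt_of_ne hne with h | h
    · refine ⟨a, b - a, by omega, ?_⟩
      have : a + (b - a) = b := by omega
      rw [this]; exact hab.symm
    · refine ⟨b, a - b, by omega, ?_⟩
      have : b + (a - b) = a := by omega
      rw [this]; exact hab
  obtain ⟨i, d, hd, h⟩ := this
  have h1 : ∀ n : ℕ, i ≤ n → x ^ (n + d) = x ^ n := by
    intro n hn
    obtain ⟨m, rfl⟩ := Nat.exists_eq_add_of_le hn
    rw [show i + m + d = (i + d) + m by omega, pow_add, h, ← pow_add]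
  have h2 : ∀ (m n : ℕ), i ≤ n → x ^ (n + m * d) = x ^ n := by
    intro m
    induction m with
    | zero => intro n _; simp
    | succ m ih =>
      intro n hn
      rw [show n + (m + 1) * d = (n + m * d) + d by ring, h1 _ (by omega), ih n hn]
  refine ⟨(i + 1) * d, Nat.mul_pos (by omega) hd, ?_⟩
  rw [← pow_add]
  refine h2 (i + 1) ((i + 1) * d) ?_
  calc i ≤ (i + 1) * 1 := by omega
    _ ≤ (i + 1) * d := Nat.mul_le_mul_left _ hd

/-- an idempotent power stays idempotent after taking further positive powers. -/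
theorem pow_mul_idem {M : Type*} [Monoid M] (x : M) (k : ℕ)
    (h : x ^ k * x ^ k = x ^ k) (t : ℕ) (ht : 0 < t) :
    x ^ (k * t) * x ^ (k * t) = x ^ (k * t) := by
  have hk : ∀ t : ℕ, 0 < t → (x ^ k) ^ t = x ^ k := by
    intro t ht
    induction t with
    | zero => omega
    | succ t ih =>
      rcases Nat.eq_zero_or_pos t with rfl | ht'
      · simp
      · rw [pow_succ, ih ht', h]
  rw [pow_mul, hk t ht, h]

theorem finite_monoidAlgebra (R : Type*) (G : Type*) [Semiring R] [Finite R] [Finite G] :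
    Finite (MonoidAlgebra R G) := by
  have : Finite (G →₀ R) := Finite.of_injective (fun f : G →₀ R => (f : G → R))
    DFunLike.coe_injective
  exact Finite.of_injective _ MonoidAlgebra.coeff_injective

/-- the kernel of reduction of coefficients mod `n` consists of multiples of `n`. -/
theorem exists_smul_of_map_eq_zero {G : Type u} [Group G] (n : ℕ) (X : MonoidAlgebra ℤ G)
    (h : MonoidAlgebra.mapRingHom G (Int.castRingHom (ZMod n)) X = 0) :
    ∃ D : MonoidAlgebra ℤ G, X = (n : ℤ) • D := by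
  have hdvd : ∀ g : G, (n : ℤ) ∣ X.coeff g := by
    intro g
    have := congrArg (fun Y => Y.coeff g) h
    simp only [MonoidAlgebra.coeff_mapRingHom, MonoidAlgebra.coeff_zero, Finsupp.coe_zero,
      Pi.zero_apply, eq_intCast] at this
    exact (ZMod.intCast_zmod_eq_zero_iff_dvd _ _).mp this
  refine ⟨MonoidAlgebra.ofCoeff (X.coeff.mapRange (fun z => z / (n : ℤ)) (by simp)), ?_⟩
  apply MonoidAlgebra.coeff_injective
  ext g
  simp only [MonoidAlgebra.coeff_smul, Finsupp.coe_smul, Pi.smul_apply,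
    Finsupp.mapRange_apply, smul_eq_mul]
  exact (Int.mul_ediv_cancel' (hdvd g)).symm

theorem pkgIdem : Cfsg.Agent.Lib.Helper44.Frob3.PkgIdem.{u} := by
  intro G _ _ p hp T c hc J
  have : NeZero (p ^ J) := ⟨pow_ne_zero _ hp.ne_zero⟩
  have : Finite (MonoidAlgebra (ZMod (p ^ J)) G) := finite_monoidAlgebra _ _
  set π := MonoidAlgebra.mapRingHom G (Int.castRingHom (ZMod (p ^ J))) with hπ
  -- inverse of `c` modulo `p ^ J`
  have hc' : IsCoprime c ((p : ℤ) ^ J) := hc.pow_right
  obtain ⟨a, b, hab⟩ := hc'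
  -- a * c + b * p^J = 1
  have hac : ((a : ℤ) : ZMod (p ^ J)) * ((c : ℤ) : ZMod (p ^ J)) = 1 := by
    have := congrArg (fun z : ℤ => (z : ZMod (p ^ J))) hab
    simp only [Int.cast_add, Int.cast_mul, Int.cast_pow, Int.cast_natCast, Int.cast_one] at this
    have h0 : ((p : ZMod (p ^ J)) ^ J) = 0 := by
      have := ZMod.natCast_self (p ^ J)
      rw [Nat.cast_pow] at this
      exact this
    rw [h0, mul_zero, add_zero] at this
    exact this
  -- the element `a • T` reduced mod `p ^ J`
  obtain ⟨k, hk, hidem⟩ := exists_pow_idem (π (a • T))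
  refine ⟨k, hk, fun t ht => ?_⟩
  have hi := pow_mul_idem (π (a • T)) k hidem t ht
  have key : π (T ^ (k * t) * T ^ (k * t) - c ^ (k * t) • T ^ (k * t)) = 0 := by
    have e2 : ∀ (z : ℤ) (Y : MonoidAlgebra ℤ G), π (z • Y) = (z : ZMod (p ^ J)) • π Y := by
      intro z Y
      apply MonoidAlgebra.coeff_injective
      ext g
      rw [hπ, MonoidAlgebra.coeff_smul, MonoidAlgebra.coeff_mapRingHom, MonoidAlgebra.coeff_smul,
        Finsupp.smul_apply, Finsupp.smul_apply, MonoidAlgebra.coeff_mapRingHom]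
      simp
    have e1 : π ((c ^ (k * t)) • (a • T) ^ (k * t)) = π (T ^ (k * t)) := by
      rw [smul_pow, smul_smul, ← mul_pow]
      rw [e2, Int.cast_pow, Int.cast_mul, mul_comm, hac, one_pow, one_smul]
    have e3 : π (T ^ (k * t)) = (c : ZMod (p ^ J)) ^ (k * t) • π (a • T) ^ (k * t) := by
      rw [← e1, e2, map_pow, Int.cast_pow]
    rw [map_sub, map_mul, e2, e3, smul_mul_smul_comm, hi, smul_smul, Int.cast_pow, sub_self]
  obtain ⟨D, hD⟩ := exists_smul_of_map_eq_zero (p ^ J) _ key
  refine ⟨D, ?_⟩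
  rw [hD]; push_cast; rfl

end Cfsg.Agent.Lib.Helper77.Frob3
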